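import Mathlib
import Cfsg.Agent.Lib.FPF.PQ

/-!
# The symmetric group of degree three acting without fixed points

`isNilpotent_commutator_of_s3` : the derived subgroup is nilpotent.
-/

set_option autoImplicit false

universe u v

namespace CfsgLib.FPF

open Subgroup CfsgLib.Core CfsgLib.HH Module
open scoped commutatorElement

theorem comm_of_s3 {Q Y : Type*} [Group Q] [Finite Q] [Group Y] (π : Q →* Y) (α β τ : Q →* Q)
    (h6 : (Nat.card Q).Coprime 6) (h1 : ∀ x, π (τ x) = π x) (h2 : ∀ x, α (τ x) = τ (β x))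
    (h3 : ∀ x, β (τ x) = τ (α x)) (h4 : ∀ x, π x * π (α x) * π (β x) = 1)
    (h5 : ∀ x, π x * π (β x) * π (α x) = 1) (x y : Q) : π x * π y = π y * π x := by
  have e1 : ∀ x, π (α (x * τ x)) = (π x)⁻¹ := fun x => by
    rw [map_mul, map_mul, h2, h1, eq_inv_iff_mul_eq_one, mul_eq_one_comm, ← mul_assoc, h4]
  have e2 : ∀ x, π (β (x * τ x)) = (π x)⁻¹ := fun x => by
    rw [map_mul, map_mul, h3, h1, eq_inv_iff_mul_eq_one, mul_eq_one_comm, ← mul_assoc, h5]
  have e3 : ∀ x y, π x * π x * (π y * π y) = π y * π x * (π y * π x) := fun x y => by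
    have h := h4 (x * τ x * (y * τ y))
    rw [map_mul α, map_mul β, map_mul π (α _), map_mul π (β _), e1, e1, e2, e2] at h
    simp only [map_mul, h1] at h
    rw [← mul_inv_eq_one, ← h]
    simp only [mul_inv_rev, mul_assoc]
  have e4 : ∀ x y, π (x ^ 3) * π (y ^ 2) = π (y ^ 2) * π (x ^ 3) := fun x y => by
    have h := e3 x⁻¹ (x * y)
    simp only [map_mul, map_inv] at h
    rw [← e3] at h
    simp only [map_mul, pow_three, sq]
    calc _ = π x * π x * (π x * π y * (π x)⁻¹ * (π x * π y * (π x)⁻¹)) * π x := by group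
      _ = _ := by rw [← h]; group
  obtain ⟨x, rfl⟩ := (powCoprime (h6.coprime_dvd_right (by norm_num : 3 ∣ 6))).surjective x
  obtain ⟨y, rfl⟩ := (powCoprime (h6.coprime_dvd_right (by norm_num : 2 ∣ 6))).surjective y
  exact e4 x y

theorem conj_prod_mem {G : Type*} [Group G] [Finite G] {Q D : Subgroup G}
    (hQD : Q ≤ normalizer (D : Set G)) {s : G} (hsQ : s ∈ normalizer (Q : Set G))
    (hsD : s ∈ normalizer (D : Set G)) (hs : s ^ 3 = 1)
    (hC : ∀ g ∈ Q, s * g * s⁻¹ * g⁻¹ ∈ D → g ∈ D) {x : G} (hx : x ∈ Q) :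
    x * (s * x * s⁻¹) * (s⁻¹ * x * s) ∈ D := by
  have := normal_subgroupOf_of_le_normalizer hQD
  let α : Q →* Q := (Q.normalizerMonoidHom ⟨s, hsQ⟩ : Q ≃* Q)
  let φ := QuotientGroup.map (D.subgroupOf Q) (D.subgroupOf Q) α
    fun g hg => (mem_normalizer_iff.1 hsD g).1 hg
  have hφ : MonoidHom.FixedPointFree φ := by
    rintro ⟨g⟩ h
    have h1 : ((α g * g⁻¹ : Q) : Q ⧸ D.subgroupOf Q) = 1 := mul_inv_eq_one.2 h
    exact (QuotientGroup.eq_one_iff g).2 (hC g g.2 ((QuotientGroup.eq_one_iff (α g * g⁻¹)).1 h1))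
  have hs' : s⁻¹ = s * s := by
    rw [inv_eq_iff_mul_eq_one, ← hs, pow_three]
  have h3 : ∀ g : Q, α (α (α g)) = g := fun g => Subtype.ext (by
    change s * (s * (s * g * s⁻¹) * s⁻¹) * s⁻¹ = g
    calc _ = s ^ 3 * g * (s ^ 3)⁻¹ := by simp only [pow_three]; group
      _ = _ := by simp [hs])
  have h := hφ.prod_pow_eq_one (n := 3) (funext fun g => by
    obtain ⟨g⟩ := g
    exact congrArg QuotientGroup.mk (h3 g)) (QuotientGroup.mk ⟨x, hx⟩)
  have h2 : ((⟨x, hx⟩ * (α ⟨x, hx⟩ * (α (α ⟨x, hx⟩) * 1)) : Q) : Q ⧸ D.subgroupOf Q) = 1 := h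
  have h4 : x * (s * x * s⁻¹ * (s * (s * x * s⁻¹) * s⁻¹ * 1)) ∈ D :=
    (QuotientGroup.eq_one_iff (N := D.subgroupOf Q) _).1 h2
  convert h4 using 1
  calc _ = x * (s * x * s⁻¹) * (s⁻¹ * x * (s⁻¹)⁻¹) := by group
    _ = _ := by
      nth_rw 2 3 [hs']
      group

theorem s3_comm {F : Type*} [Field F] [IsAlgClosed F] {X : Type*} [Group X] [Finite X]
    {V : Type*} [AddCommGroup V] [Module F V] [FiniteDimensional F V] (ρ : Representation F X V)
    {A Q : Subgroup X} {s : X} (hs : orderOf s = 3) (hsA : s ∈ A)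
    (hinv : ∀ t ∈ A, t ∉ zpowers s → t * s * t⁻¹ = s⁻¹ ∧ t ^ 2 = 1)
    (hAs : A ≤ normalizer ((zpowers s : Subgroup X) : Set X))
    (hcard : Nat.card A = 6) (hcop : (Nat.card A).Coprime (Nat.card Q))
    (hfix : Q ⊓ centralizer (A : Set X) = ⊥) (hV : ∀ v, (∀ a ∈ A, ρ a v = v) → v = 0)
    {u : ℕ} (hu : u.Prime) (huF : (u : F) ≠ 0) (hQ : IsPGroup u Q)
    (hAQ : A ≤ normalizer (Q : Set X)) (hρ : ∀ g ∈ Q, ρ g = 1 → g = 1) : ⁅Q, Q⁆ = ⊥ := by
  have := Fact.mk hu
  set K := zpowers s with hK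
  have hKA : K ≤ A := zpowers_le.2 hsA
  have hcK : Nat.card K = 3 := by rw [Nat.card_zpowers, hs]
  have hcA : ∀ {B T : Subgroup X}, B ≤ A → T ≤ Q → (Nat.card B).Coprime (Nat.card T) :=
    fun h h' => CfsgLib.Coprime.coprime_of_le hcop h h'
  have hidx : K.relIndex A = 2 := by
    have h2 := card_mul_relIndex_of_le hKA
    rw [hcK, hcard] at h2
    omega
  have hgen : ∀ t ∈ A, t ∉ K → K ⊔ zpowers t = A := fun t ht htK =>
    CfsgLib.Coprime.eq_of_lt_of_relIndex_prime (H := K) (hidx ▸ Nat.prime_two)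
      (left_lt_sup.2 (by rwa [zpowers_le])) (sup_le hKA (zpowers_le.2 ht))
  have hfix2 : ∀ t ∈ A, t ∉ K → Q ⊓ centralizer (K : Set X) ⊓ centralizer {t} = ⊥ := by
    intro t ht htK
    rw [← hfix, ← hgen t ht htK, centralizer_sup, centralizer_zpowers t, inf_assoc]
  have hAC : A ≤ normalizer ((Q ⊓ centralizer (K : Set X) : Subgroup X) : Set X) :=
    (le_inf hAQ (hAs.trans (normalizer_le_normalizer_centralizer _))).trans
      inf_normalizer_le_normalizer_inf
  have hQs : Group.IsSolvable Q := have := hQ.isNilpotent; inferInstance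
  by_contra hne
  let Z := Q ⊓ centralizer (Q : Set X)
  have hNZ : normalizer (Q : Set X) ≤ normalizer (Z : Set X) :=
    normalizer_le_normalizer_inf_centralizer Q
  have hQQ : ⁅Q, Q⁆ ≤ Q := commutator_le_of_le le_rfl le_rfl
  obtain ⟨⟨z, hz⟩, hz1⟩ := ne_bot_iff_exists_ne_one.1 (inf_centralizer_ne_bot_of_isPGroup
    (hQ.to_le hQQ) hQ (normalizer_commutator_ge_left _ _) hne)
  have hzZ : z ∈ Z := ⟨hQQ hz.1, hz.2⟩
  have hZQ : ∀ z ∈ Z, ∀ g ∈ Q, ρ z * ρ g = ρ g * ρ z := fun z hz g hg => by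
    rw [← map_mul, ← map_mul, hz.2 g hg]
  obtain ⟨n, hn⟩ := isPGroup_subgroup_iff.1 hQ z hzZ.1
  obtain ⟨χ, hW, hχ⟩ := exists_wt_not_mem_kerOn ρ (Z := Z) (fun z hz z' hz' => hZQ z hz z' hz'.1)
    (fun z' hz' => hZQ z' hz' z hzZ.1) (m := u ^ n) (by rw [Nat.cast_pow]; exact pow_ne_zero _ huF)
    (by rw [← map_pow, hn, map_one]) (fun h => hz1 (Subtype.ext (hρ _ hzZ.1 h)))
  set W := wt ρ Z χ with hWdef
  have hZA : ⁅Z, A⁆ = Z := CfsgLib.Coprime.commutator_eq_of_centralizer_eq_bot (hAQ.trans hNZ)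
    (hcA le_rfl inf_le_left)
    (Or.inr (have := (hQ.to_le (inf_le_left : Z ≤ Q)).isNilpotent; inferInstance))
    (eq_bot_iff.2 (hfix ▸ inf_le_inf_right _ inf_le_left))
  have hnot : ¬ A ≤ stab ρ W := fun h => by
    have h1 := commutator_le_kerOn_wt h
    rw [commutator_comm, hZA] at h1
    exact hχ (h1 hzZ)
  have hQW : Q ≤ stab ρ W := le_stab_wt hZQ χ
  have hQK : Q ≤ normalizer (kerOn ρ W : Set X) := hQW.trans (stab_le_normalizer_kerOn _ _)
  have hboth : s ∈ stab ρ W → ∀ t ∈ A, t ∉ K → t ∉ stab ρ W := fun h t ht htK h' =>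
    hnot (hgen t ht htK ▸ sup_le (zpowers_le.2 h) (zpowers_le.2 h'))
  have hsp : s ^ 3 = 1 := hs ▸ pow_orderOf_eq_one s
  refine hχ ((?_ : ⁅Q, Q⁆ ≤ kerOn ρ W) hz.1)
  by_cases hsW : s ∈ stab ρ W
  · obtain ⟨t, htA, htK⟩ : ∃ t ∈ A, t ∉ K := by
      by_contra h
      push Not at h
      have := card_le_of_le (show A ≤ K from h)
      omega
    have ht1 : t ≠ 1 := by rintro rfl; exact htK (one_mem _)
    have hfree : zpowers t ⊓ stab ρ W = ⊥ := zpowers_inf_eq_bot_of_prime_orderOf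
      (orderOf_eq_prime (hinv t htA htK).2 ht1 ▸ Nat.prime_two) (hboth hsW t htA htK)
    have h1 : ⁅Q, K⁆ ≤ kerOn ρ W := by
      refine commutator_le_kerOn_of_fix ρ (hKA.trans hAQ) (hcK ▸ Nat.prime_three) (hcA hKA le_rfl)
        (card_ne_zero_of_isPGroup huF hQ) (Or.inl ?_) hQW (zpowers_le.2 hsW) (fun v hv h => ?_)
      · exact Nat.coprime_two_left.1 (hcop.coprime_dvd_left (by rw [hcard]; norm_num))
      · refine eq_zero_of_free ρ (zpowers_le.2 (hNZ (hAQ htA))) _ hfree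
          (Or.inr (zpowers_le.2 (hAs htA))) ?_ hv h
        rwa [sup_comm, hgen t htA htK]
    have h2 : ⁅Q ⊓ centralizer (K : Set X), Q ⊓ centralizer (K : Set X)⁆ ≤ ⊥ := by
      have h := fun k hk => CfsgLib.Frob.conj_eq_inv_of_fpf (hAC htA) (hfix2 t htA htK)
        (by rw [← sq, (hinv t htA htK).2]; exact one_mem _) (k := k) hk
      refine commutator_le.2 fun a ha b hb => ?_
      rw [mem_bot, commutatorElement_eq_one_iff_mul_comm, ← inv_inj, ← h _ (mul_mem ha hb),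
        mul_inv_rev, ← h _ ha, ← h _ hb]
      group
    have e := CfsgLib.Coprime.commutator_sup_centralizer (hKA.trans hAQ) (hcA hKA le_rfl)
      (Or.inr hQs)
    have h3 : ∀ {T : Subgroup X}, T ≤ Q → ⁅⁅Q, K⁆, T⁆ ≤ kerOn ρ W := fun h =>
      (commutator_mono h1 le_rfl).trans (CfsgLib.Coprime.commutator_le_of_le_normalizer (h.trans hQK))
    nth_rw 1 [← e]
    refine commutator_sup_left_le (h1.trans le_normalizer) (inf_le_left.trans hQK) (h3 le_rfl) ?_
    nth_rw 2 [← e]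
    refine commutator_sup_right_le (h1.trans le_normalizer) (inf_le_left.trans hQK) ?_
      (h2.trans bot_le)
    rw [commutator_comm]
    exact h3 inf_le_left
  have hfree : K ⊓ stab ρ W = ⊥ := zpowers_inf_eq_bot_of_prime_orderOf (hs ▸ Nat.prime_three) hsW
  obtain ⟨⟨t, htA, htW⟩, ht1⟩ := ne_bot_iff_exists_ne_one.1
    (show A ⊓ stab ρ W ≠ ⊥ from fun h => hW (wt_eq_bot_of_free ρ (hAQ.trans hNZ) _ h hV))
  have htK : t ∉ K := fun h => ht1 (Subtype.ext (mem_bot.1 (hfree ▸ ⟨h, htW⟩)))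
  obtain ⟨hts, ht2⟩ := hinv t htA htK
  have hneg : ∀ v ∈ W, ρ t v = -v := fun v hv => by
    rw [eq_neg_iff_add_eq_zero]
    refine eq_zero_of_free ρ (hKA.trans (hAQ.trans hNZ)) χ (T := zpowers t) hfree
      (Or.inl (zpowers_le.2 (hAs htA))) (by rwa [hgen t htA htK]) (add_mem (htW v hv) hv)
      (zpowers_le.2 ?_ : _ ≤ vecStab ρ _)
    change ρ t _ = _
    rw [map_add, ← Module.End.mul_apply, ← map_mul, ← sq, ht2, map_one, add_comm]
    rfl
  have ht' : t⁻¹ = t := by rw [inv_eq_iff_mul_eq_one, ← sq, ht2]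
  have h1 : ∀ g ∈ Q, g⁻¹ * (t * g * t⁻¹) ∈ kerOn ρ W := fun g hg v hv => by
    rw [ht', map_mul, map_mul, map_mul, Module.End.mul_apply, Module.End.mul_apply,
      Module.End.mul_apply, hneg v hv, map_neg, map_neg, hneg _ (hQW hg v hv), neg_neg,
      ← Module.End.mul_apply, ← map_mul, inv_mul_cancel, map_one]
    rfl
  let D := Q ⊓ kerOn ρ (orbSp ρ K W)
  have hQD : Q ≤ normalizer (D : Set X) := (le_inf le_normalizer fun x hx =>
    stab_le_normalizer_kerOn _ _ (mem_stab_orbSp_of_forall fun g hg =>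
      le_stab_map hQW (hAQ (hKA hg)) hx)).trans inf_normalizer_le_normalizer_inf
  have hKD : K ≤ normalizer (D : Set X) := (le_inf (hKA.trans hAQ)
    ((le_stab_orbSp ρ K W).trans (stab_le_normalizer_kerOn _ _))).trans
      inf_normalizer_le_normalizer_inf
  have hCD : Q ⊓ centralizer (K : Set X) ≤ D := fun x hx => by
    refine ⟨hx.1, mem_kerOn_orbSp.2 fun g hg => mem_kerOn_map_iff.2 ?_⟩
    obtain ⟨y, hy, rfl⟩ := CfsgLib.Frob.exists_commutator_eq_of_fpf (hAC htA) (hfix2 t htA htK) hx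
    rw [mul_assoc, ← hx.2 g hg, inv_mul_cancel_left]
    simpa [mul_assoc] using h1 _ (Q.inv_mem hy.1)
  have hprod : ∀ y ∈ K, zpowers y = K → ∀ x ∈ Q, x * (y * x * y⁻¹) * (y⁻¹ * x * y) ∈ kerOn ρ W :=
    fun y hy hyK x hx v hv => (conj_prod_mem hQD (hAQ (hKA hy)) (hKD hy)
      (by rw [← hcK]; exact congrArg Subtype.val (pow_card_eq_one' (x := (⟨y, hy⟩ : K))))
      (fun g hg h => mem_of_comm_mem inf_le_left hQD (hKD hy)
        ((hcA hKA inf_le_left).coprime_dvd_left (K.orderOf_dvd_natCard hy))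
        (fun g hg h => hCD ⟨hg, by
          rw [← hyK, centralizer_zpowers]; exact mem_centralizer_singleton_iff.2 h.symm⟩) hg h)
      hx).2 v (le_orbSp ρ K W hv)
  have := normal_subgroupOf_of_le_normalizer hQK
  let c : ∀ a ∈ A, Q →* Q := fun a ha => (Q.normalizerMonoidHom ⟨a, hAQ ha⟩ : Q ≃* Q)
  have hc : ∀ a ha (x : Q), (c a ha x : X) = a * x * a⁻¹ := fun _ _ _ => rfl
  refine commutator_le.2 fun a ha b hb => ?_
  have h := comm_of_s3 (QuotientGroup.mk' ((kerOn ρ W).subgroupOf Q)) (c s hsA) (c s⁻¹ (inv_mem hsA))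
    (c t htA) (hcard ▸ hcop.symm) (fun x => (QuotientGroup.eq (s := (kerOn ρ W).subgroupOf Q).2 (h1 x x.2)).symm)
    (fun x => Subtype.ext (by
      simp only [hc]
      calc _ = t * (t⁻¹ * s * t⁻¹⁻¹) * x * (t⁻¹ * s * t⁻¹⁻¹)⁻¹ * t⁻¹ := by group
        _ = _ := by rw [ht', hts]; group))
    (fun x => Subtype.ext (by
      simp only [hc]
      calc _ = t * (t⁻¹ * s * t⁻¹⁻¹)⁻¹ * x * (t⁻¹ * s * t⁻¹⁻¹) * t⁻¹ := by group
        _ = _ := by rw [ht', hts]; group))
    (fun x => (QuotientGroup.eq_one_iff (x * c s hsA x * c s⁻¹ (inv_mem hsA) x)).2 (by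
      simpa [mem_subgroupOf, hc] using hprod s (mem_zpowers s) rfl x x.2))
    (fun x => (QuotientGroup.eq_one_iff (x * c s⁻¹ (inv_mem hsA) x * c s hsA x)).2 (by
      simpa [mem_subgroupOf, hc] using hprod s⁻¹ (inv_mem (mem_zpowers s)) zpowers_inv x x.2))
    ⟨a, ha⟩ ⟨b, hb⟩
  rw [← commutatorElement_eq_one_iff_mul_comm, ← map_commutatorElement] at h
  exact (QuotientGroup.eq_one_iff (N := (kerOn ρ W).subgroupOf Q) _).1 h

theorem le_nilRes_of_comm_sylow {G : Type*} [Group G] [Finite G] {H U P : Subgroup G} [H.Normal]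
    {u : ℕ} (hu : u.Prime) (hPH : P ≤ H) (hP : IsPGroup u P) (hi : ¬ u ∣ P.relIndex H)
    (hab : ⁅P, P⁆ = ⊥) (hU : IsPGroup u U) (hUH : U ≤ ⁅H, H⁆) : U ≤ nilRes H := by
  have := Fact.mk hu
  have := nilRes_normal H
  let π := QuotientGroup.mk' (nilRes H)
  obtain ⟨O, hOH, hO, hsup, hNO, -, -⟩ := exists_compl_of_isNilpotent (isNilpotent_map_nilRes H) hu
    (map_mono hPH) (hP.map π) (not_dvd_relIndex_map _ hPH hi)
  have hPO : P.map π ≤ normalizer (O : Set _) := (map_mono hPH).trans (le_normalizer.trans hNO)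
  have h1 : ⁅P.map π ⊔ O, P.map π ⊔ O⁆ ≤ O := by
    refine commutator_sup_left_le hPO le_normalizer (commutator_sup_right_le hPO le_normalizer ?_ ?_)
      (CfsgLib.Coprime.commutator_le_of_le_normalizer (sup_le hPO le_normalizer))
    · rw [← map_commutator, hab, Subgroup.map_bot]
      exact bot_le
    · rw [commutator_comm]
      exact CfsgLib.Coprime.commutator_le_of_le_normalizer hPO
  rw [hsup, ← map_commutator] at h1
  obtain ⟨k, hk⟩ := IsPGroup.iff_card.1 (hU.map π)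
  have h2 := inf_eq_bot_of_coprime_card (H := U.map π) (K := O) (hk ▸ hO.symm.pow_left k)
  rwa [inf_eq_left.2 ((map_mono hUH).trans h1), Subgroup.map_eq_bot_iff, QuotientGroup.ker_mk'] at h2

theorem isNilpotent_commutator_of_s3_aux {A : Type v} [Group A] {s : A} (hs : orderOf s = 3)
    [(zpowers s).Normal] (hinv : ∀ t, t ∉ zpowers s → t * s * t⁻¹ = s⁻¹ ∧ t ^ 2 = 1)
    (hcard : Nat.card A = 6) (n : ℕ) :
    ∀ {X : Type u} [Group X] [Finite X] (ι : A →* X), Function.Injective ι →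
      ∀ {S : Subgroup X} [S.Normal], Nat.card S = n → Group.IsSolvable S →
      (Nat.card A).Coprime (Nat.card S) → S ⊓ centralizer (ι.range : Set X) = ⊥ →
      Group.IsNilpotent ↥⁅S, S⁆ := by
  induction n using Nat.strong_induction_on with
  | _ n ih =>
  intro X _ _ ι hι S _ hn hS hcop hfix
  have hcop' : ∀ (N : Subgroup X) [N.Normal],
      (Nat.card A).Coprime (Nat.card (S.map (QuotientGroup.mk' N))) :=
    fun N _ => hcop.coprime_dvd_right (card_map_dvd _ _)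
  have hfix' : ∀ (N : Subgroup X) [N.Normal], S.map (QuotientGroup.mk' N) ⊓
      centralizer (((QuotientGroup.mk' N).comp ι).range : Set (X ⧸ N)) = ⊥ := fun N _ => by
    rw [← MonoidHom.map_range]
    exact inf_centralizer_map_eq_bot hS (by rwa [card_range_of_injective hι]) hfix N
  have hih : ∀ (N : Subgroup X) [N.Normal], N ≠ ⊥ → N ≤ S →
      Group.IsNilpotent ((⁅S, S⁆).map (QuotientGroup.mk' N)) := by
    intro N _ hN hNS
    have := (inferInstance : S.Normal).map _ (QuotientGroup.mk'_surjective N)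
    rw [map_commutator]
    exact ih _ (hn ▸ card_map_mk'_lt hN hNS) _ (injective_mk'_comp hι hcop N hNS) rfl
      (isSolvable_map _ _) (hcop' N) (hfix' N)
  refine isNilpotent_of_rep hS (commutator_le_left S S) hih ?_
  intro K _ hK hKS l _ V _ _ _ ρ hl hρ hV u U hu hul hUn hUH hU hi
  have := Fact.mk hu
  have := (inferInstance : S.Normal).map _ (QuotientGroup.mk'_surjective K)
  by_contra hU0
  have hι' := injective_mk'_comp hι hcop K hKS
  have h1 := hih K hK hKS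
  rw [map_commutator] at h1 hUH hi
  set ι' := (QuotientGroup.mk' K).comp ι with hι'def
  set T := S.map (QuotientGroup.mk' K)
  have hc := card_range_of_injective hι'
  have hl' : ¬ l ∣ Nat.card A := fun h =>
    (Fact.out : l.Prime).one_lt.ne' (Nat.dvd_one.1 (hcop ▸ Nat.dvd_gcd h hl))
  have hV' : ∀ v, (∀ a ∈ ι'.range, ρ a v = v) → v = 0 := by
    rw [← MonoidHom.map_range]
    exact hV _ hfix
  obtain ⟨P, hPT, hP, hPi, hAP⟩ := CfsgLib.Coprime.exists_invariant_sylow' u (K := T) (A := ι'.range)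
    le_normalizer_of_normal (hc ▸ hcop' K) (Or.inr (isSolvable_map _ _))
  have hab : ⁅P, P⁆ = ⊥ := by
    refine s3_comm (baseChangeRep (AlgebraicClosure (ZMod l)) ρ) (A := ι'.range) (s := ι' s)
      (by rw [orderOf_injective ι' hι', hs]) (MonoidHom.mem_range.2 ⟨s, rfl⟩) ?_ ?_ (hc ▸ hcard)
      ((hc ▸ hcop' K).coprime_dvd_right (card_dvd_of_le hPT))
      (eq_bot_iff.2 (hfix' K ▸ inf_le_inf_right _ hPT)) (fix_of_rankDom (rankDom_baseChangeRep _ ρ)
        (natCast_algebraicClosure_ne_zero (card_ne_zero_zmod (hc ▸ hl'))) hV') hu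
      (natCast_algebraicClosure_ne_zero (natCast_zmod_ne_zero Fact.out hu hul.symm)) hP hAP
      fun g hg h => hρ g (hPT hg) ((baseChangeRep_eq_one_iff _ ρ).1 h)
    · rintro _ ⟨t, rfl⟩ ht
      obtain ⟨h2, h3⟩ := hinv t fun h => ht (by
        rw [← MonoidHom.map_zpowers]; exact mem_map_of_mem _ h)
      exact ⟨by rw [← map_inv, ← map_mul, ← map_mul, h2, map_inv], by rw [← map_pow, h3, map_one]⟩
    · rw [← MonoidHom.map_zpowers, MonoidHom.range_eq_map]
      exact (map_mono le_normalizer_of_normal).trans (le_normalizer_map ι')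
  have hUL := le_nilRes_of_comm_sylow hu hPT hP hPi hab hU hUH
  have hLT : nilRes T ≤ ⁅T, T⁆ := nilRes_le_lcs T 1
  have hUS := hUH.trans (commutator_le_left T T)
  obtain ⟨r, R, hr, hru, hRS, hR, -, hAR, hne⟩ := exists_sylow_not_le_centralizer
    (A := ι'.range) (isNilpotent_of_le hLT) hu hUL hU
    (fun h => hi (h.trans (Dvd.intro _ (relIndex_mul_relIndex _ _ _ hUL hLT)))) hU0
    le_normalizer_of_normal (hc ▸ hcop' K) (Or.inr (isSolvable_map _ _))
  exact hne (pq_key_zmod Nat.prime_three Nat.prime_two (by norm_num) hs hcard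
    (Or.inl (hcard ▸ by decide)) ι' hι' (hcop' K) (hfix' K) l V ρ hl' hV' hu hr hul hru hUS hRS hU hR
    le_normalizer_of_normal le_normalizer_of_normal hAR fun g hg => hρ g (hUS hg))

theorem isNilpotent_commutator_of_s3 {G : Type u} [Group G] [Finite G] (hG : Group.IsSolvable G)
    (φ : Equiv.Perm (Fin 3) →* MulAut G) (hcop : (Nat.card G).Coprime 6)
    (hfpf : ∀ g : G, (∀ a, φ a g = g) → g = 1) : Group.IsNilpotent (commutator G) := by
  have : Finite (G ⋊[φ] Equiv.Perm (Fin 3)) := CfsgLib.Coprime.finite_sd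
  have := CfsgLib.Coprime.sdL_top_normal (φ := φ)
  have hcard : Nat.card (Equiv.Perm (Fin 3)) = 6 := by
    rw [Nat.card_eq_fintype_card, Fintype.card_perm]; rfl
  have hs : orderOf (finRotate 3) = 3 := orderOf_eq_prime (by decide) (by decide)
  have hinv : ∀ t : Equiv.Perm (Fin 3), t ∉ zpowers (finRotate 3) →
      t * finRotate 3 * t⁻¹ = (finRotate 3)⁻¹ ∧ t ^ 2 = 1 := fun t ht => by
    have h : ∀ t : Equiv.Perm (Fin 3), (∃ i : Fin 3, finRotate 3 ^ (i : ℕ) = t) ∨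
        (t * finRotate 3 * t⁻¹ = (finRotate 3)⁻¹ ∧ t ^ 2 = 1) := by decide
    exact (h t).resolve_left fun ⟨i, hi⟩ => ht (hi ▸ pow_mem (mem_zpowers _) _)
  have : (zpowers (finRotate 3)).Normal := normal_of_index_eq_two (by
    have h := (zpowers (finRotate 3)).card_mul_index
    rw [Nat.card_zpowers, hs, hcard] at h
    omega)
  have h := isNilpotent_commutator_of_s3_aux hs hinv hcard _ SemidirectProduct.inr
    SemidirectProduct.inr_injective rfl (isSolvable_sdL φ hG)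
    (by rw [CfsgLib.Coprime.card_sdL, card_top, hcard]; exact hcop.symm)
    (sdL_inf_centralizer_range φ hfpf)
  have e : ⁅CfsgLib.Coprime.sdL φ ⊤, CfsgLib.Coprime.sdL φ ⊤⁆ =
      CfsgLib.Coprime.sdL φ (commutator G) := (map_commutator _ _ _).symm
  rwa [e, ← fitSer_zero (CfsgLib.Coprime.sdL φ _), ← fitSer_succ_eq_bot_iff, fitSer_sdL,
    fitSer_succ_eq_bot_iff] at h

end CfsgLib.FPF
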