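import Mathlib
import Cfsg.Agent.Lib.FPF.Three

/-!
# Fixed point free automorphisms of order `2 ^ n` (Gross)

`fitSer_eq_bot_of_fpf_two` : the Fitting height is at most `2 n - 2`.
-/

set_option autoImplicit false

universe u

namespace CfsgLib.FPF

open Subgroup Cfsg CfsgLib.Core CfsgLib.HH CfsgLib.PLocal Module Finset
open scoped commutatorElement

theorem le_natDegree_of_powIndep {F A : Type*} [Field F] [Ring A] [Algebra F A] {T : A} {m : ℕ}
    (h : PowIndep (F := F) T m) {f : Polynomial F} (hf : f.Monic)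
    (hT : Polynomial.aeval T f = 0) : m ≤ f.natDegree := by
  by_contra hlt
  rw [Polynomial.aeval_eq_sum_range' (not_le.1 hlt)] at hT
  exact one_ne_zero (hf.coeff_natDegree ▸ h _ hT _ (not_le.1 hlt))

theorem powIndep_le_of_fix {F V : Type*} [Field F] [AddCommGroup V] [Module F V]
    [FiniteDimensional F V] {T : Module.End F V} (hfix : ∀ v, T v = v → v = 0) {n m : ℕ}
    (hn : n ≠ 0) (h : PowIndep (F := F) T m) :
    m + 1 ≤ n + finrank F (LinearMap.range (T ^ n - 1)) := by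
  have hinv : ∀ v ∈ LinearMap.range (T ^ n - 1), T v ∈ LinearMap.range (T ^ n - 1) := by
    rintro _ ⟨v, rfl⟩
    exact ⟨T v, by simp [← Module.End.mul_apply, ← pow_succ, ← pow_succ']⟩
  have h1 : ∀ (f : Polynomial F) (v : LinearMap.range (T ^ n - 1)),
      (Polynomial.aeval (T.restrict hinv) f v : V) = Polynomial.aeval T f v := fun f v => by
    induction f using Polynomial.induction_on' with
    | add p q hp hq => simp [hp, hq]
    | monomial k c =>
      simp only [Polynomial.aeval_monomial, Module.End.mul_apply, Module.algebraMap_end_apply,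
        Module.End.pow_restrict k hinv]
      rfl
  have h2 := le_natDegree_of_powIndep h
    ((T.restrict hinv).charpoly_monic.mul (Polynomial.monic_geom_sum_X hn)) (by
      ext v
      refine hfix _ (sub_eq_zero.1 ?_)
      have h3 := h1 (T.restrict hinv).charpoly ⟨_, v, rfl⟩
      rw [LinearMap.aeval_self_charpoly] at h3
      have h4 : (T - 1) * Polynomial.aeval T ((T.restrict hinv).charpoly * ∑ i ∈ range n,
          Polynomial.X ^ i) = Polynomial.aeval T (T.restrict hinv).charpoly * (T ^ n - 1) := by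
        have : T - 1 = Polynomial.aeval T (Polynomial.X - 1 : Polynomial F) := by simp
        rw [this, ← map_mul, mul_left_comm, mul_geom_sum, map_mul]
        simp
      exact (LinearMap.congr_fun h4 v).trans h3.symm)
  rw [(T.restrict hinv).charpoly_monic.natDegree_mul (Polynomial.monic_geom_sum_X hn),
    LinearMap.charpoly_natDegree] at h2
  have h3 : (∑ i ∈ range n, (Polynomial.X : Polynomial F) ^ i).natDegree ≤ n - 1 :=
    Polynomial.natDegree_sum_le_of_forall_le _ _ fun i hi => by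
      rw [Polynomial.natDegree_X_pow]
      have := mem_range.1 hi
      omega
  omega

theorem eq_one_of_two_pow_eq {u k m : ℕ} (hu : 2 ≤ u) (hk : 1 ≤ k) (h : 2 ^ m = u ^ k + 1) :
    k = 1 := by
  have h3 : 2 ≤ u ^ k := hu.trans (Nat.le_self_pow (by omega) u)
  obtain ⟨m, rfl⟩ : ∃ j, m = j + 2 := by
    rcases m with _ | _ | m
    · omega
    · omega
    · exact ⟨m, rfl⟩
  have h0 : 2 ^ (m + 2) = 4 * 2 ^ m := by ring
  have hodd : Odd u := by
    by_contra he
    have h1 : Even (u ^ k) := (Nat.not_odd_iff_even.1 he).pow_of_ne_zero (by omega)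
    obtain ⟨c, hc⟩ := h1
    omega
  rcases Nat.even_or_odd k with ⟨j, rfl⟩ | hk2
  · obtain ⟨c, hc⟩ := hodd.pow (n := j)
    rw [pow_add u, hc] at h
    have : (2 * c + 1) * (2 * c + 1) + 1 = 4 * (c * c + c) + 2 := by ring
    omega
  have h2 : ∑ i ∈ range k, (-(u : ℤ)) ^ i ∣ 2 ^ (m + 2) := by
    have := geom_sum_mul (-(u : ℤ)) k
    rw [hk2.neg_pow] at this
    refine ⟨u + 1, ?_⟩
    have h' : ((2 : ℤ) ^ (m + 2)) = u ^ k + 1 := by exact_mod_cast h
    linear_combination h' + this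
  have h4 : Odd (∑ i ∈ range k, (-(u : ℤ)) ^ i) := by
    rw [Int.odd_iff, Finset.sum_int_mod, sum_congr rfl fun i _ =>
      Int.odd_iff.1 (Odd.neg (show Odd (u : ℤ) by exact_mod_cast hodd)).pow, ← Int.odd_iff]
    simpa using hk2
  have h5 : IsUnit (∑ i ∈ range k, (-(u : ℤ)) ^ i) :=
    (Int.isCoprime_two_right.2 h4).pow_right.isUnit_of_dvd h2
  have h6 := geom_sum_mul (-(u : ℤ)) k
  rw [hk2.neg_pow] at h6
  have h7 : (u : ℤ) ^ k = u := by
    rcases Int.isUnit_iff.1 h5 with e | e <;> rw [e] at h6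
    · linarith
    · have : (0 : ℤ) < u ^ k := by positivity
      have : (0 : ℤ) ≤ u := by positivity
      linarith
  have h8 : u ^ k = u ^ 1 := by rw [pow_one]; exact_mod_cast h7
  exact Nat.pow_right_injective hu h8

variable {G : Type*} [Group G] [Finite G]

/-- the Hall–Higman theorem on an elementary abelian group without fixed points -/
theorem hh_two_elem {u r a j : ℕ} [Fact u.Prime] [Fact r.Prime] (hr2 : 2 ≠ r) (hur : u ≠ r)
    {M R : Subgroup G} (hM : IsElementaryAbelian u M) (hR : IsPGroup r R) {x : G}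
    (hRM : R ≤ normalizer (M : Set G)) (hxM : x ∈ normalizer (M : Set G))
    (hxR : x ∈ normalizer (R : Set G)) (hxa : x ^ 2 ^ (a + 1) = 1)
    (hfix : M ⊓ centralizer {x} = ⊥) (hne : ¬ ⁅R, zpowers (x ^ 2 ^ a)⁆ ≤ centralizer (M : Set G))
    (hj : Nat.card ↥⁅M, zpowers (x ^ 2 ^ a)⁆ ≤ u ^ j) :
    2 ^ (a + 1) + 1 ≤ 2 ^ a + j ∨ ∃ c d, c + d = a + 1 ∧ 2 ^ d = r + 1 ∧
      2 ^ c * (2 ^ d - 1) + 1 ≤ 2 ^ a + j := by
  have := elem_finiteDimensional hM
  have key : ∀ m, PowIndep (F := ZMod u) (ElemMod.rep hM le_rfl ⟨x, hxM⟩) m → m + 1 ≤ 2 ^ a + j := by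
    intro m hm
    refine (powIndep_le_of_fix (fun v hv => ?_) (pow_ne_zero a two_ne_zero) hm).trans
      (Nat.add_le_add_left ?_ _)
    · rw [← ElemMod.toG_eq_one, ← mem_bot, ← hfix]
      exact ⟨v.toG_mem, mem_centralizer_singleton_iff.2
        ((ElemMod.rep_apply_eq_iff le_rfl _ v).1 hv).symm⟩
    rw [← Nat.pow_le_pow_iff_right (Fact.out : u.Prime).one_lt, ← ElemMod.card_toSubgroup_eq_pow]
    refine (card_le_of_le ?_).trans hj
    rintro _ ⟨_, ⟨v, rfl⟩, rfl⟩
    rw [← map_pow, LinearMap.sub_apply, Module.End.one_apply, ElemMod.toG_rep_sub, commutator_comm]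
    exact commutator_mem_commutator (mem_zpowers _) v.toG_mem
  rcases hh_elem Nat.prime_two hr2 hur hM le_rfl hR hRM ⟨x, hxM⟩ hxR a (hxa ▸ one_mem _) (by
    by_contra h
    push Not at h
    rw [commutator_comm] at hne
    exact hne (commutator_zpowers_left_le (normalizer_le_normalizer_centralizer _ (pow_mem hxM _))
      h)) with h | ⟨c, d, k, h1, -, h3, h4, -, h5⟩
  · exact Or.inl (key _ h)
  · obtain rfl := eq_one_of_two_pow_eq (Fact.out : r.Prime).two_le h3 h4
    exact Or.inr ⟨c, d, h1, by simpa using h4, key _ h5⟩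

theorem dvd_of_card_commutator_dvd {r n : ℕ} [Fact r.Prime] {M R : Subgroup G} [IsMulCommutative M]
    (hR : IsPGroup r R) (hcop : (Nat.card R).Coprime (Nat.card M)) {t : G}
    (hRM : R ≤ normalizer (M : Set G)) (htM : t ∈ normalizer (M : Set G))
    (htR : t ∈ normalizer (R : Set G)) (hne : ¬ ⁅R, zpowers t⁆ ≤ centralizer (M : Set G))
    (hn : Nat.card ↥⁅M, zpowers t⁆ ∣ n) : ∃ m, m ≠ 1 ∧ m ∣ n * n ∧ m ≡ 1 [MOD r] := by
  obtain ⟨h, hh, hg⟩ : ∃ h ∈ R, ⁅h, t⁆ ∉ centralizer (M : Set G) := by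
    by_contra h
    push Not at h
    exact hne (commutator_zpowers_right_le (normalizer_le_normalizer_centralizer _ htM) h)
  have hgR : zpowers ⁅h, t⁆ ≤ R := zpowers_le.2 (CfsgLib.Coprime.commutator_le_of_le_normalizer
    (zpowers_le.2 htR) (commutator_mem_commutator hh (mem_zpowers t)))
  have hle : ∀ {s : G}, s ∈ normalizer (M : Set G) → ⁅M, zpowers s⁆ ≤ M := fun hs =>
    CfsgLib.Coprime.commutator_le_of_le_normalizer (zpowers_le.2 hs)
  have ht' : h * t * h⁻¹ ∈ normalizer (M : Set G) :=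
    mul_mem (mul_mem (hRM hh) htM) (inv_mem (hRM hh))
  have hK : ⁅M, zpowers t⁆ ⊔ ⁅M, zpowers (h * t * h⁻¹)⁆ ≤ M := sup_le (hle htM) (hle ht')
  have hst : ∀ {s : G}, ⁅M, zpowers s⁆ ≤ ⁅M, zpowers t⁆ ⊔ ⁅M, zpowers (h * t * h⁻¹)⁆ →
      s ∈ commutatorStabilizer M (⁅M, zpowers t⁆ ⊔ ⁅M, zpowers (h * t * h⁻¹)⁆) := fun hs =>
    le_commutatorStabilizer_iff.2 ⟨le_normalizer_iff_commutator_le_left.2
      ((commutator_mono hK le_rfl).trans hs), commutator_comm M _ ▸ hs⟩ (mem_zpowers _)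
  have h1 : ⁅M, zpowers ⁅h, t⁆⁆ ≤ ⁅M, zpowers t⁆ ⊔ ⁅M, zpowers (h * t * h⁻¹)⁆ := by
    rw [commutator_comm]
    exact (le_commutatorStabilizer_iff.1 (zpowers_le.2
      (mul_mem (hst le_sup_right) (inv_mem (hst le_sup_left))))).2
  have h2 : Nat.card ↥⁅M, zpowers (h * t * h⁻¹)⁆ = Nat.card ↥⁅M, zpowers t⁆ := by
    rw [← card_map_of_injective (MulAut.conj h).injective (K := ⁅M, zpowers t⁆) (f := (MulAut.conj h :
      G →* G)), map_commutator, MonoidHom.map_zpowers, mem_normalizer_iff_map_conj_eq.1 (hRM hh)]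
    rfl
  refine ⟨Nat.card ↥⁅M, zpowers ⁅h, t⁆⁆, fun e => hg ?_, ?_, ?_⟩
  · exact le_centralizer_iff.1 (commutator_eq_bot_iff_le_centralizer.1 (card_eq_one.1 e))
      (mem_zpowers _)
  · refine (card_dvd_of_le h1).trans ((card_sup_dvd_of_le_normalizer ((hle htM).trans
      (normalizer_commutator_ge_left _ _))).trans ?_)
    rw [h2]
    exact mul_dvd_mul hn hn
  · have h3 := CfsgLib.SolvStruct.card_modEq_card_inf_centralizer (hR.to_le hgR)
      (normalizer_commutator_ge_right M _)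
    rwa [inf_comm, CfsgLib.Coprime.centralizer_inf_commutator_eq_bot (hgR.trans hRM)
      (CfsgLib.Coprime.coprime_of_le hcop hgR le_rfl), card_bot] at h3

section sec

omit [Finite G]

/-- the image of `T ⊓ H` in `H / N` -/
def sec (H N : Subgroup G) [(N.subgroupOf H).Normal] (T : Subgroup G) :
    Subgroup (H ⧸ N.subgroupOf H) := (T.subgroupOf H).map (QuotientGroup.mk' _)

variable {H N A B : Subgroup G} [(N.subgroupOf H).Normal]

theorem sec_commutator (hA : A ≤ H) (hB : B ≤ H) : ⁅sec H N A, sec H N B⁆ = sec H N ⁅A, B⁆ := by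
  rw [sec, sec, ← map_commutator, commutator_subgroupOf hA hB, sec]

theorem sec_zpowers (g : H) : sec H N (zpowers (g : G)) = zpowers (QuotientGroup.mk' _ g) := by
  rw [← MonoidHom.map_zpowers, sec]
  congr 1
  apply map_injective H.subtype_injective
  rw [map_subgroupOf_eq_of_le (zpowers_le.2 g.2), MonoidHom.map_zpowers]
  rfl

theorem sec_eq_bot_iff (hA : A ≤ H) : sec H N A = ⊥ ↔ A ≤ N := by
  rw [sec, Subgroup.map_eq_bot_iff, QuotientGroup.ker_mk']
  exact ⟨fun h a ha => h (show (⟨a, hA ha⟩ : H) ∈ _ from ha), fun h => comap_mono h⟩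

theorem card_sec (hA : A ≤ H) : Nat.card (sec H N A) = N.relIndex A := by
  rw [sec, ← relIndex_ker, QuotientGroup.ker_mk', relIndex_subgroupOf hA]

theorem sec_le_normalizer (h : A ≤ normalizer (B : Set G)) :
    sec H N A ≤ normalizer (sec H N B : Set (H ⧸ N.subgroupOf H)) :=
  (map_mono fun _ hx => mem_normalizer_subgroupOf (h hx)).trans (le_normalizer_map _)

theorem mk_mem_normalizer_sec {g : H} (h : (g : G) ∈ normalizer (B : Set G)) :
    QuotientGroup.mk' _ g ∈ normalizer (sec H N B : Set (H ⧸ N.subgroupOf H)) :=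
  sec_le_normalizer (zpowers_le.2 h) (mem_map_of_mem _ (mem_zpowers (g : G)))

theorem isPGroup_sec {p : ℕ} (h : IsPGroup p A) : IsPGroup p (sec H N A) := h.comap_subtype.map _

theorem isMulCommutative_sec (hA : A ≤ H) (h : ⁅A, A⁆ ≤ N) : IsMulCommutative (sec H N A) := by
  rw [← le_centralizer_iff_isMulCommutative, ← commutator_eq_bot_iff_le_centralizer,
    sec_commutator hA hA, sec_eq_bot_iff ((commutator_le_sup _ _).trans (sup_le hA hA))]
  exact h

theorem sec_le_centralizer_iff (hA : A ≤ H) (hB : B ≤ H) :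
    sec H N A ≤ centralizer (sec H N B : Set (H ⧸ N.subgroupOf H)) ↔ ⁅B, A⁆ ≤ N := by
  rw [← commutator_eq_bot_iff_le_centralizer, commutator_comm, sec_commutator hB hA,
    sec_eq_bot_iff ((commutator_le_sup _ _).trans (sup_le hB hA))]

end sec

theorem two_key {F : Type*} [Field F] [IsAlgClosed F] {V : Type*} [AddCommGroup V] [Module F V]
    [FiniteDimensional F V] (ρ : Representation F G V) {u r a : ℕ} [Fact u.Prime] [Fact r.Prime]
    (hu2 : 2 ≠ u) (hr2 : 2 ≠ r) (hru : r ≠ u) (huF : (u : F) ≠ 0) {U R : Subgroup G}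
    (hU : IsPGroup u U) (hR : IsPGroup r R) {x : G} (hxU : x ∈ normalizer (U : Set G))
    (hxR : x ∈ normalizer (R : Set G)) (hRU : R ≤ normalizer (U : Set G))
    (hxa : x ^ 2 ^ (a + 1) = 1) (hfix : U ⊓ centralizer {x} = ⊥)
    (hRt : ⁅R, zpowers (x ^ 2 ^ a)⁆ = R) (hρ : ∀ g ∈ U, ρ g = 1 → g = 1)
    (hpi : ¬ PowIndep (F := F) (ρ x) (2 ^ (a + 1))) : R ≤ centralizer (U : Set G) := by
  by_contra hne
  obtain ⟨Q, hQU, hxQ, hRQ, hne', hmin⟩ :=
    exists_minimal_not_le_centralizer (zpowers_le.2 hxU) hRU hne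
  have hQu := hU.to_le hQU
  have hcRQ : (Nat.card R).Coprime (Nat.card Q) := IsPGroup.coprime_card_of_ne r u hru _ _ hR hQu
  obtain ⟨hQR, hQ2, -, hpow, hCR⟩ := minimal_special hQu hxQ hRQ (zpowers_le.2 hxR) hcRQ hne' hmin
  replace hxQ := zpowers_le.1 hxQ
  set t := x ^ 2 ^ a with ht
  have htQ : t ∈ normalizer (Q : Set G) := pow_mem hxQ _
  have hct : ∀ {T : Subgroup G}, T ≤ Q → (Nat.card (zpowers t)).Coprime (Nat.card T) := fun h => by
    rw [Nat.card_zpowers]
    exact coprime_orderOf_of_pow_eq_one Nat.prime_two hu2 (hQu.to_le h) (n := 1)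
      (by rw [ht, ← pow_mul, pow_one, ← pow_succ, hxa])
  have hQt : ∀ {K : Subgroup G}, R ≤ normalizer (K : Set G) → t ∈ normalizer (K : Set G) →
      ⁅Q, zpowers t⁆ ≤ K → Q ≤ K := fun h1 h2 h3 => by
    have := commutator_le_of_commutator_eq hRQ h1 (zpowers_le.2 h2) h3
    rwa [hRt, hQR] at this
  have hQQ : ⁅Q, Q⁆ ≠ ⊥ := fun h => by
    have h1 := hh_abelian Nat.prime_two hu2 huF ρ hQu (fun g hg g' hg' => by
      rw [← map_mul, ← map_mul, (commutator_eq_bot_iff_le_centralizer.1 h hg' g hg)]) hxQ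
      (by rw [← map_pow, hxa, map_one]) hpi
    have h2 := hQt (K := ⊥) le_normalizer_of_normal (le_normalizer_of_normal (mem_top t))
      fun g hg => hρ g (hQU (CfsgLib.Coprime.commutator_le_of_le_normalizer (zpowers_le.2 htQ) hg))
        (h1 hg)
    exact hne' fun g _ y hy => by rw [mem_bot.1 (h2 hy)]; simp
  set Z := Q ⊓ centralizer (Q : Set G) with hZ
  have hNZ : normalizer (Q : Set G) ≤ normalizer (Z : Set G) :=
    normalizer_le_normalizer_inf_centralizer Q
  have hQQ' : ⁅Q, Q⁆ ≤ Q := commutator_le_of_le le_rfl le_rfl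
  have hQZ : ⁅Q, Q⁆ ≤ Z := le_inf hQQ' hQ2
  have hRZ := hmin Z (lt_of_le_of_ne inf_le_left fun e =>
    hQQ (commutator_eq_bot_iff_le_centralizer.2 (e.ge.trans inf_le_right)))
    (zpowers_le.2 (hNZ hxQ)) (hRQ.trans hNZ)
  obtain ⟨⟨z, hz⟩, hz1⟩ := ne_bot_iff_exists_ne_one.1 hQQ
  have hZQ : ∀ z ∈ Z, ∀ g ∈ Q, ρ z * ρ g = ρ g * ρ z := fun z hz g hg => by
    rw [← map_mul, ← map_mul, hz.2 g hg]
  obtain ⟨n, hn⟩ := isPGroup_subgroup_iff.1 hQu z (hQQ' hz)
  obtain ⟨χ, hW, hχ⟩ := exists_wt_not_mem_kerOn ρ (Z := Z) (fun z hz z' hz' => hZQ z hz z' hz'.1)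
    (fun z' hz' => hZQ z' hz' z (hQQ' hz)) (m := u ^ n)
    (by rw [Nat.cast_pow]; exact pow_ne_zero _ huF)
    (by rw [← map_pow, hn, map_one]) (fun h => hz1 (Subtype.ext (hρ _ (hQU (hQQ' hz)) h)))
  set W := wt ρ Z χ with hWdef
  set E := ⁅Q, zpowers t⁆ with hE
  have hEQ : E ≤ Q := CfsgLib.Coprime.commutator_le_of_le_normalizer (zpowers_le.2 htQ)
  have hxE : x ∈ normalizer (E : Set G) := normalizer_inf_le_normalizer_commutator _ _
    ⟨hxQ, centralizer_le_normalizer _ (centralizer_le (zpowers_le.2 (pow_mem (mem_zpowers x) _))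
      (le_centralizer _ (mem_zpowers x)))⟩
  have hQW : Q ≤ stab ρ W := le_stab_wt hZQ χ
  have hRW : R ≤ stab ρ W := le_stab_wt (fun z hz g hg => by
    rw [← map_mul, ← map_mul, hRZ hg z hz]) χ
  obtain ⟨c, b, rfl, hxW, -, hcase⟩ := classTwo_wt Nat.prime_two hu2 huF ρ (hQu.to_le hEQ) hxE
    (hNZ hxQ) hxa (fun z hz g hg => hZQ z hz g (hEQ hg)) ((commutator_mono hEQ hEQ).trans hQZ)
    (fun g hg h => hQZ (CfsgLib.Coprime.centralizer_inf_commutator_le (zpowers_le.2 htQ)
      (hct le_rfl) ⟨by rw [centralizer_zpowers]; exact mem_centralizer_singleton_iff.2 h.symm, hg⟩))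
    hW hpi
  have htW : t ∈ stab ρ W := by rw [ht, pow_add, pow_mul]; exact pow_mem hxW _
  have hnk := stab_le_normalizer_kerOn ρ W
  obtain ⟨k, hk, h1, h2, -⟩ := hcase.resolve_left fun h => hχ (hQt (hRW.trans hnk) (hnk htW) (by
    exact (CfsgLib.Coprime.commutator_commutator_eq (zpowers_le.2 htQ) (hct le_rfl)).ge.trans
      (le_sup_right.trans h)) (hQQ' hz))
  obtain rfl := eq_one_of_two_pow_eq (Fact.out : u.Prime).two_le hk h1
  rw [pow_one] at h1
  have hrad : ∀ g ∈ normalizer (Q : Set G), t ∈ stab ρ (W.map (ρ g)) →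
      radOn ρ (W.map (ρ g)) E ≤ radOn ρ (W.map (ρ g)) Q := by
    intro g hg htg y hy
    have hQg := le_stab_map hQW hg
    have hn' := stab_le_normalizer_kerOn ρ (W.map (ρ g))
    have h3 := commutator_centralizer_commutator_le (hQg.trans hn') (zpowers_le.2 (hn' htg)) (by
      rw [hWdef, map_wt ρ (hNZ hg)] at htg ⊢
      rw [commutator_comm]
      exact (commutator_mono le_rfl hQZ).trans (commutator_le_kerOn_wt (zpowers_le.2 htg)))
    have h4 : ⁅zpowers y, E ⊔ (Q ⊓ centralizer (zpowers t : Set G))⁆ ≤ kerOn ρ (W.map (ρ g)) :=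
      commutator_sup_right_le (hEQ.trans (hQg.trans hn')) (inf_le_left.trans (hQg.trans hn'))
        (le_commutatorStabilizer_iff.1 (zpowers_le.2 hy.2)).2
        ((commutator_mono (zpowers_le.2 hy.1) le_rfl).trans h3)
    rw [CfsgLib.Coprime.commutator_sup_centralizer (zpowers_le.2 htQ) (hct le_rfl)
      (Or.inl (CfsgLib.Coprime.isSolvable_zpowers t))] at h4
    exact (mem_radOn hQg).2 ⟨hEQ hy.1, fun w hw => h4 (commutator_mem_commutator (mem_zpowers y) hw)⟩
  have hR0 : ¬ Q ≤ radOn ρ W Q := fun h => hχ (commutator_le.2 (fun g hg g' hg' =>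
    ((mem_radOn hQW).1 (h hg)).2 g' hg') hz)
  have ht0 : 0 < 2 ^ c := pow_pos two_pos c
  have hD : (⨅ i ∈ range (2 ^ c), radOn ρ (W.map (ρ (x ^ i))) Q) ≤ Z := by
    have h3 : (⨅ i ∈ range (2 ^ c), radOn ρ (W.map (ρ (x ^ i))) Q) ≤ radOn ρ W Q := by
      refine (iInf₂_le 0 (mem_range.2 ht0)).trans ?_
      rw [pow_zero, map_rep_one]
    have h4 := h3.trans_lt (lt_of_le_not_ge (radOn_le ρ W Q) hR0)
    refine le_inf h4.le ((le_inf h4.le (le_centralizer_iff.1 (hmin _ h4
      (zpowers_le.2 (mem_normalizer_iInf_radOn hQW hxQ ht0 hxW)) fun g hg => ?_))).trans hCR)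
    refine mem_normalizer_of_forall_conj_mem fun y hy => ?_
    simp only [mem_iInf] at hy ⊢
    exact fun i hi => (mem_normalizer_iff.1 (normalizer_radOn (le_stab_map hQW (pow_mem hxQ i))
      (hRQ hg) (le_stab_map hRW (pow_mem hxR i) hg)) y).1 (hy i hi)
  have hj : Z.relIndex E ≤ u ^ (2 * 2 ^ c) := by
    have h3 := relIndex_le_of_orbit (hEQ.trans hQW) hxE (range (2 ^ c))
    rw [h2, card_range, mul_one, ← pow_mul] at h3
    refine (relIndex_le_of_le_left (le_trans (iInf₂_mono fun i _ => hrad _ (pow_mem hxQ i) ?_) hD)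
      index_ne_zero_of_finite).trans h3
    rw [mem_stab_map_iff, ht, mul_assoc, ← pow_add, add_comm (2 ^ _), pow_add, inv_mul_cancel_left]
    exact htW
  -- Hall–Higman on `Q / Z`
  have hnum : 2 ^ (c + b + 1) + 1 ≤ 2 ^ (c + b) + 2 * 2 ^ c ∨ ∃ c' d, c' + d = c + b + 1 ∧
      2 ^ d = r + 1 ∧ 2 ^ c' * (2 ^ d - 1) + 1 ≤ 2 ^ (c + b) + 2 * 2 ^ c := by
    have := normal_subgroupOf_of_le_normalizer hNZ
    have hz : ∀ i : ℕ, sec _ Z (zpowers (x ^ i)) = zpowers (QuotientGroup.mk' _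
        (⟨x, hxQ⟩ : normalizer (Q : Set G)) ^ i) := fun i =>
      sec_zpowers ((⟨x, hxQ⟩ : normalizer (Q : Set G)) ^ i)
    refine hh_two_elem hr2 hru.symm (M := sec (normalizer (Q : Set G)) Z Q) (R := sec _ Z R)
      ⟨isMulCommutative_sec le_normalizer hQZ, ?_⟩ (isPGroup_sec hR)
      (x := QuotientGroup.mk' _ ⟨x, hxQ⟩) (sec_le_normalizer hRQ) (mk_mem_normalizer_sec hxQ)
      (mk_mem_normalizer_sec hxR) (by rw [← map_pow, ← map_one (QuotientGroup.mk' _)]; congr 1
                                      exact Subtype.ext hxa) ?_ ?_ ?_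
    · rintro _ ⟨g, hg, rfl⟩
      exact (QuotientGroup.eq_one_iff (g ^ u)).2 ⟨pow_mem hg u, hpow g hg⟩
    · rw [← centralizer_zpowers, ← MonoidHom.map_zpowers, sec, ← CfsgLib.Coprime.map_inf_centralizer _
        (zpowers_le.2 (mem_normalizer_subgroupOf hxQ)) (by
          rw [Nat.card_zpowers]
          exact coprime_orderOf_of_pow_eq_one Nat.prime_two hu2
            (hQu.comap_subtype.to_le inf_le_left) (Subtype.ext hxa))
        (Or.inl (CfsgLib.Coprime.isSolvable_zpowers _)), centralizer_zpowers, eq_bot_iff]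
      rintro _ ⟨g, hg, rfl⟩
      have h3 : (g : G) ∈ U ⊓ centralizer {x} := ⟨hQU hg.1, mem_centralizer_singleton_iff.2
        (congrArg Subtype.val (mem_centralizer_singleton_iff.1 hg.2))⟩
      rw [hfix, mem_bot] at h3
      rw [show g = 1 from Subtype.ext h3, map_one]
      exact one_mem _
    · rw [← hz, sec_commutator hRQ (zpowers_le.2 htQ), hRt, sec_le_centralizer_iff hRQ le_normalizer,
        hQR]
      exact fun h => hQQ (commutator_eq_bot_iff_le_centralizer.2 (h.trans inf_le_right))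
    · rwa [← hz, sec_commutator le_normalizer (zpowers_le.2 htQ),
        card_sec (hEQ.trans le_normalizer)]
  have hu3 : 3 ≤ u := by have := (Fact.out : u.Prime).two_le; omega
  have hr3 : 3 ≤ r := by have := (Fact.out : r.Prime).two_le; omega
  obtain ⟨b, rfl⟩ : ∃ b', b = b' + 1 := Nat.exists_eq_succ_of_ne_zero (by rintro rfl; omega)
  have hb0 : 0 < 2 ^ b := pow_pos two_pos b
  have e1 : 2 ^ (c + (b + 1)) = 2 * (2 ^ c * 2 ^ b) := by ring
  have e2 : 2 ^ (c + (b + 1) + 1) = 4 * (2 ^ c * 2 ^ b) := by ring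
  have e3 : 2 ^ c ≤ 2 ^ c * 2 ^ b := Nat.le_mul_of_pos_right _ hb0
  obtain ⟨c', d, h3, h4, h5⟩ := hnum.resolve_left (by omega)
  obtain ⟨d, rfl⟩ : ∃ d', d = d' + 2 := by
    rcases d with _ | _ | d
    · omega
    · omega
    · exact ⟨d, rfl⟩
  obtain rfl : b = 0 := by
    by_contra hb
    have e4 : 2 ^ c' * (2 ^ (d + 2) - 1) + 2 ^ c' = 4 * (2 ^ c * 2 ^ b) := by
      rw [← e2, ← h3, pow_add 2 c', ← Nat.mul_succ, Nat.succ_eq_add_one,
        Nat.sub_add_cancel (Nat.one_le_two_pow)]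
    have e5 : 2 ^ c' ≤ 2 ^ c * 2 ^ b := by
      rw [← pow_add]
      exact Nat.pow_le_pow_right two_pos (by omega)
    have e6 : 2 ^ c * 2 ≤ 2 ^ c * 2 ^ b :=
      Nat.mul_le_mul_left _ (Nat.le_self_pow hb 2)
    omega
  obtain rfl : u = 3 := by omega
  -- the action on `Q / rad`
  set N := radOn ρ W Q with hN
  have hNn : ∀ {g : G}, g ∈ normalizer (Q : Set G) → g ∈ stab ρ W →
      g ∈ normalizer (Q : Set G) ⊓ normalizer (N : Set G) := fun h h' =>
    ⟨h, normalizer_radOn hQW h h'⟩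
  have := normal_subgroupOf_of_le_normalizer
    (inf_le_right : normalizer (Q : Set G) ⊓ normalizer (N : Set G) ≤ _)
  have hQH : Q ≤ normalizer (Q : Set G) ⊓ normalizer (N : Set G) :=
    fun g hg => hNn (le_normalizer hg) (hQW hg)
  have hRH : R ≤ normalizer (Q : Set G) ⊓ normalizer (N : Set G) :=
    fun g hg => hNn (hRQ hg) (hRW hg)
  have := isMulCommutative_sec (N := N) hQH (hQZ.trans fun g hg => (mem_radOn hQW).2
    ⟨hg.1, fun y hy => by rw [← hg.2 y hy]; simp⟩)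
  obtain ⟨m, hm1, hm2, hm3⟩ := dvd_of_card_commutator_dvd (n := 9) (M := sec _ N Q)
    (isPGroup_sec (H := normalizer (Q : Set G) ⊓ normalizer (N : Set G)) (N := N) hR)
    (IsPGroup.coprime_card_of_ne r 3 hru _ _ (isPGroup_sec hR) (isPGroup_sec hQu))
    (t := QuotientGroup.mk' _ ⟨t, hNn htQ htW⟩) (sec_le_normalizer hRQ) (mk_mem_normalizer_sec htQ)
    (mk_mem_normalizer_sec (pow_mem hxR _)) (by
      rw [← sec_zpowers, sec_commutator hRH (zpowers_le.2 (hNn htQ htW)), hRt,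
        sec_le_centralizer_iff hRH hQH, hQR]
      exact hR0) (by
      rw [← sec_zpowers, sec_commutator hQH (zpowers_le.2 (hNn htQ htW)), card_sec (hEQ.trans hQH)]
      have h6 := hrad 1 (one_mem _) (by rwa [map_rep_one])
      rw [map_rep_one] at h6
      exact (relIndex_dvd_of_le_left _ h6).trans h2.dvd)
  obtain ⟨j, hj4, rfl⟩ := (Nat.dvd_prime_pow Nat.prime_three (m := 4)).1 hm2
  have h6 := (Nat.modEq_iff_dvd' (Nat.one_le_pow _ _ (by norm_num))).1 hm3.symm
  have h7 : r = 2 ∨ r = 5 ∨ r = 13 := by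
    have hr : r.Prime := Fact.out
    have h8 : r ∣ 2 ^ 4 * (5 * 13) := h6.trans (by interval_cases j <;> simp_all)
    rcases (hr.dvd_mul).1 h8 with h | h
    · exact Or.inl ((Nat.prime_dvd_prime_iff_eq hr Nat.prime_two).1 (hr.dvd_of_dvd_pow h))
    rcases (hr.dvd_mul).1 h with h | h
    · exact Or.inr (Or.inl ((Nat.prime_dvd_prime_iff_eq hr (by norm_num)).1 h))
    · exact Or.inr (Or.inr ((Nat.prime_dvd_prime_iff_eq hr (by norm_num)).1 h))
  have e4 : 2 ^ (d + 2) = 4 * 2 ^ d := by ring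
  omega

theorem fitSer_two_commutator (a n : ℕ) :
    ∀ {X : Type u} [Group X] [Finite X] {S : Subgroup X} [S.Normal] {x : X}, Nat.card S = n →
      Group.IsSolvable S → S ⊔ zpowers x = ⊤ → ¬ 2 ∣ Nat.card S → x ^ 2 ^ (a + 1) = 1 →
      S ⊓ centralizer {x} = ⊥ → Group.IsNilpotent (nilRes ⁅S, zpowers (x ^ 2 ^ a)⁆) := by
  induction n using Nat.strong_induction_on with
  | _ n ih =>
  intro X _ _ S _ x hn hS hsup hrS hxa hfix
  have hcop : ∀ y ∈ zpowers x, (Nat.card (zpowers y)).Coprime (Nat.card S) := fun y hy => by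
    refine Nat.Coprime.coprime_dvd_left (card_dvd_of_le (zpowers_le.2 hy)) ?_
    rw [Nat.card_zpowers]
    exact Nat.Coprime.coprime_dvd_left (orderOf_dvd_of_pow_eq_one hxa)
      (((Nat.Prime.coprime_iff_not_dvd Nat.prime_two).2 hrS).pow_left _)
  have hyx : x ^ 2 ^ a ∈ zpowers x := pow_mem (mem_zpowers x) _
  have hHn := commutator_normal_of_sup (T := zpowers (x ^ 2 ^ a)) (A := zpowers x)
    ((le_centralizer (zpowers x)).trans ((centralizer_le (zpowers_le.2 hyx)).trans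
      (centralizer_le_normalizer _))) hsup
  have := nilRes_normal ⁅S, zpowers (x ^ 2 ^ a)⁆
  have hfix' : ∀ (N : Subgroup X) [N.Normal],
      S.map (QuotientGroup.mk' N) ⊓ centralizer {QuotientGroup.mk' N x} = ⊥ := fun N _ => by
    rw [← centralizer_zpowers, ← MonoidHom.map_zpowers]
    exact inf_centralizer_map_eq_bot hS (hcop x (mem_zpowers x)) (by rwa [centralizer_zpowers]) N
  have hih : ∀ (N : Subgroup X) [N.Normal], N ≠ ⊥ → N ≤ S →
      Group.IsNilpotent ((nilRes ⁅S, zpowers (x ^ 2 ^ a)⁆).map (QuotientGroup.mk' N)) := by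
    intro N _ hN hNS
    have := (inferInstance : S.Normal).map _ (QuotientGroup.mk'_surjective N)
    rw [map_nilRes, map_commutator, MonoidHom.map_zpowers, map_pow]
    exact ih _ (hn ▸ card_map_mk'_lt hN hNS) rfl (isSolvable_map _ _)
      (by rw [← MonoidHom.map_zpowers, ← Subgroup.map_sup, hsup,
        map_top_of_surjective _ (QuotientGroup.mk'_surjective N)])
      (fun h => hrS (h.trans (card_map_dvd _ _))) (by rw [← map_pow, hxa, map_one]) (hfix' N)
  have hHS : ⁅S, zpowers (x ^ 2 ^ a)⁆ ≤ S := commutator_le_left _ _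
  refine isNilpotent_of_rep hS ((nilRes_le _).trans hHS) hih ?_
  intro K _ hK hKS l _ V _ _ _ ρ hl hρ hV u U hu hul hUn hUH hU hi
  have := Fact.mk hu
  by_contra hU0
  have h1 := hih K hK hKS
  rw [map_nilRes] at h1 hUH hi
  have hHn' := hHn.map _ (QuotientGroup.mk'_surjective K)
  have hT : (⁅S, zpowers (x ^ 2 ^ a)⁆).map (QuotientGroup.mk' K) ≤
      ⁅(⁅S, zpowers (x ^ 2 ^ a)⁆).map (QuotientGroup.mk' K),
        zpowers (QuotientGroup.mk' K x ^ 2 ^ a)⁆ := by
    rw [← map_pow, ← MonoidHom.map_zpowers, ← map_commutator,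
      CfsgLib.Coprime.commutator_commutator_eq le_normalizer_of_normal (hcop _ hyx)]
  have hTS := map_mono (f := QuotientGroup.mk' K) hHS
  set T := (⁅S, zpowers (x ^ 2 ^ a)⁆).map (QuotientGroup.mk' K)
  set y := QuotientGroup.mk' K x with hy
  have hUS := hUH.trans ((nilRes_le _).trans hTS)
  have hne2 : ∀ {q : ℕ} {P : Subgroup (X ⧸ K)}, q.Prime → IsPGroup q P → P ≠ ⊥ →
      P ≤ S.map (QuotientGroup.mk' K) → 2 ≠ q := by
    rintro q P _ hP h0 hPS rfl
    exact hrS (((dvd_card_of_isPGroup_of_ne_bot hP h0).trans (card_dvd_of_le hPS)).trans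
      (card_map_dvd _ _))
  have hya : y ^ 2 ^ (a + 1) = 1 := by rw [hy, ← map_pow, hxa, map_one]
  have hcy : (Nat.card (zpowers y)).Coprime (Nat.card (S.map (QuotientGroup.mk' K))) := by
    rw [hy, ← MonoidHom.map_zpowers]
    exact coprime_map _ (hcop x (mem_zpowers x))
  obtain ⟨r, R, hr, hru, hRT, hR, hRi, hAR, hne⟩ := exists_sylow_not_le_centralizer
    (A := zpowers y) h1 hu hUH hU hi hU0 le_normalizer_of_normal
    (hcy.coprime_dvd_right (card_dvd_of_le hTS)) (Or.inl (CfsgLib.Coprime.isSolvable_zpowers y))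
  have := Fact.mk hr
  have hyt : zpowers (y ^ 2 ^ a) ≤ zpowers y := zpowers_le.2 (pow_mem (mem_zpowers y) _)
  have hR' : ⁅R, zpowers (y ^ 2 ^ a)⁆ ≤ R :=
    CfsgLib.Coprime.commutator_le_of_le_normalizer (hyt.trans hAR)
  have h2 := two_key (baseChangeRep (AlgebraicClosure (ZMod l)) ρ) (hne2 hu hU hU0 hUS)
    (hne2 hr hR (by rintro rfl; exact hne bot_le) (hRT.trans hTS)) hru
    (natCast_algebraicClosure_ne_zero (natCast_zmod_ne_zero Fact.out hu hul.symm)) hU (hR.to_le hR')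
    (le_normalizer_of_normal (mem_top y)) (normalizer_inf_le_normalizer_commutator _ _
      ⟨hAR (mem_zpowers y), centralizer_le_normalizer _ (centralizer_le hyt
        (le_centralizer _ (mem_zpowers y)))⟩) le_normalizer_of_normal hya
    (CfsgLib.Frob.fpf_mono hUS (hfix' K)) (CfsgLib.Coprime.commutator_commutator_eq (hyt.trans hAR)
      (CfsgLib.Coprime.coprime_of_le hcy hyt (hRT.trans hTS)))
    (fun g hg h => hρ g (hUS hg) ((baseChangeRep_eq_one_iff _ ρ).1 h))
    (fun h => not_powIndep_of_fix (pow_pos two_pos _) (by rw [← map_pow, hya, map_one])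
      (fun v hv => hV (zpowers x) (by rwa [centralizer_zpowers]) v (by
        rw [MonoidHom.map_zpowers]
        exact mem_fixSp_zpowers.2 hv)) (PowIndep.of_baseChange _ h))
  refine hne fun g hg => ?_
  have := nilRes_normal T
  obtain ⟨c, hc, w, hw, rfl⟩ := mem_sup_of_normal_right.1
    (le_commutator_sup_nilRes hr hRT hR hRi hT hg)
  refine mul_mem (h2 hc) (le_centralizer_of_coprime_of_le_isNilpotent (H := R ⊓ nilRes T)
    inf_le_right hUH (IsPGroup.coprime_card_of_ne r u hru _ _ (hR.to_le inf_le_left) hU) ⟨?_, hw⟩)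
  simpa using R.mul_mem (R.inv_mem (hR' hc)) hg

theorem fitSer_eq_bot_of_fpf_two (n : ℕ) :
    ∀ {G : Type u} [Group G] [Finite G], Group.IsSolvable G → ∀ σ : MulAut G,
      σ ^ 2 ^ (n + 2) = 1 → (∀ g, σ g = g → g = 1) → fitSer (2 * n + 2) (⊤ : Subgroup G) = ⊥ := by
  induction n with
  | zero =>
    intro G _ _ hG σ hσ h
    have := isNilpotent_commutator_of_fpf_four hG σ hσ h
    exact fitSer_succ_eq_bot_iff.2 (isNilpotent_of_le (K := commutator G) (nilRes_le_lcs ⊤ 1))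
  | succ n ih =>
    intro G _ _ hG σ hσ h
    obtain ⟨N, _, τ, h1, h2, h3⟩ := exists_quotient_aut (s := 2) hG Nat.prime_two σ hσ h
      fun h1 h2 h3 h4 h5 => fitSer_succ_eq_bot_iff.2 (fitSer_two_commutator _ _ rfl h1 h2 h3 h4 h5)
    rw [show 2 * (n + 1) + 2 = 2 + (2 * n + 2) by ring]
    exact fitSer_add_eq_bot h1 (ih inferInstance τ h2 h3)

end CfsgLib.FPF
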